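import Mathlib
import Cfsg.Agent.Lib.Helper4.FXSP.Defs
import Cfsg.Agent.Lib.Helper94.Symp
import Cfsg.Agent.Lib.Helper40.Symp

/-!
# FXSP (S5975): existence of a `K`-Darboux basis ([DARB]) and the induction behind it
-/

set_option autoImplicit false
open scoped Matrix

namespace Cfsg.Agent.Lib.Helper11.FXSP

open Cfsg.Agent.Lib.Helper4.FXSP Cfsg.Agent.Lib.Helper94

universe u

variable {F : Type u} [Field F] {d k : ℕ} {K : Subalgebra F (Md d F)}

theorem f_sa (hA : Adm d k K) (a : ↥K) (x y : Vd d F) :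
    Cfsg.sympForm d F ((a : Md d F) *ᵥ x) y = Cfsg.sympForm d F x ((a : Md d F) *ᵥ y) :=
  hA.sa a a.2 x y

theorem kcomm (hA : Adm d k K) (a b : ↥K) : a * b = b * a :=
  Subtype.ext (hA.fld.comm a a.2 b b.2)

theorem f_same (hA : Adm d k K) (a b : ↥K) (x : Vd d F) :
    Cfsg.sympForm d F ((a : Md d F) *ᵥ x) ((b : Md d F) *ᵥ x) = 0 := by
  rw [f_sa hA a, Matrix.mulVec_mulVec, sf_swap]
  have := hA.alt ((a * b : ↥K) : Md d F) (a * b).2 x
  rw [show (a : Md d F) * (b : Md d F) = ((a * b : ↥K) : Md d F) from rfl, this, neg_zero]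

/-- The functional `a ↦ f(a x, y)` on `K`. -/
def lamL (K : Subalgebra F (Md d F)) (x y : Vd d F) : ↥K →ₗ[F] F where
  toFun a := Cfsg.sympForm d F ((a : Md d F) *ᵥ x) y
  map_add' a b := by
    rw [Subalgebra.coe_add, Matrix.add_mulVec, sf_add_left]
  map_smul' c a := by
    rw [Subalgebra.coe_smul, Matrix.smul_mulVec, sf_smul_left, RingHom.id_apply, smul_eq_mul]

theorem lamL_apply (x y : Vd d F) (a : ↥K) :
    lamL K x y a = Cfsg.sympForm d F ((a : Md d F) *ᵥ x) y := rfl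

/-- `τ` is non-degenerate: `τ (c * a) = 0` for all `a` forces `c = 0`. -/
theorem tau_nondeg (hA : Adm d k K) (τ : ↥K →ₗ[F] F) (hτ : τ ≠ 0) (c : ↥K)
    (h : ∀ a : ↥K, τ (c * a) = 0) : c = 0 := by
  by_contra hc
  have hc' : (c : Md d F) ≠ 0 := fun h0 => hc (Subtype.ext h0)
  obtain ⟨y, hyK, hy⟩ := hA.fld.inv c c.2 hc'
  apply hτ
  ext t
  have := h (⟨y, hyK⟩ * t)
  rw [← mul_assoc] at this
  have h1 : c * (⟨y, hyK⟩ : ↥K) = 1 := Subtype.ext hy
  rw [h1, one_mul] at this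
  rw [this, LinearMap.zero_apply]

/-- Every functional on `K` is `a ↦ τ (c * a)`. -/
theorem exists_rep (hA : Adm d k K) (τ : ↥K →ₗ[F] F) (hτ : τ ≠ 0) (lam : ↥K →ₗ[F] F) :
    ∃ c : ↥K, ∀ a : ↥K, lam a = τ (c * a) := by
  let Ψ : ↥K →ₗ[F] (↥K →ₗ[F] F) := (LinearMap.mul F ↥K).compr₂ τ
  have hΨ : ∀ c a, Ψ c a = τ (c * a) := fun c a => rfl
  have hinj : Function.Injective Ψ := by
    rw [← LinearMap.ker_eq_bot, LinearMap.ker_eq_bot']
    intro c hc
    apply tau_nondeg hA τ hτ c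
    intro a
    rw [← hΨ, hc, LinearMap.zero_apply]
  have hsurj : Function.Surjective Ψ :=
    (LinearMap.injective_iff_surjective_of_finrank_eq_finrank
      (Subspace.dual_finrank_eq (K := F) (V := ↥K)).symm).mp hinj
  obtain ⟨c, hc⟩ := hsurj lam
  exact ⟨c, fun a => by rw [← hc, hΨ]⟩

/-- The vectors orthogonal to `K w + K u`. -/
def perpK (K : Subalgebra F (Md d F)) (w u : Vd d F) : Submodule F (Vd d F) where
  carrier := {x | ∀ a : ↥K, Cfsg.sympForm d F x ((a : Md d F) *ᵥ w) = 0 ∧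
    Cfsg.sympForm d F x ((a : Md d F) *ᵥ u) = 0}
  add_mem' := by
    intro x y hx hy a
    rw [sf_add_left, sf_add_left, (hx a).1, (hy a).1, (hx a).2, (hy a).2, add_zero]
    exact ⟨rfl, rfl⟩
  zero_mem' := by
    intro a
    rw [sf_zero_left, sf_zero_left]
    exact ⟨rfl, rfl⟩
  smul_mem' := by
    intro c x hx a
    rw [sf_smul_left, sf_smul_left, (hx a).1, (hx a).2, mul_zero]
    exact ⟨rfl, rfl⟩

/-- Splitting off a `K`-hyperbolic plane `K w ⊕ K u` from a `K`-invariant non-degenerate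
subspace. -/
theorem step (hA : Adm d k K) (τ : ↥K →ₗ[F] F) (hτ : τ ≠ 0) (W : Submodule F (Vd d F))
    (hWK : ∀ a ∈ K, ∀ w ∈ W, a *ᵥ w ∈ W)
    (hWn : ∀ w ∈ W, (∀ u ∈ W, Cfsg.sympForm d F w u = 0) → w = 0) (hW : W ≠ ⊥) :
    ∃ w ∈ W, ∃ u ∈ W,
      (∀ a b : ↥K, Cfsg.sympForm d F ((a : Md d F) *ᵥ u) ((b : Md d F) *ᵥ w) = τ (a * b)) ∧
      ∃ W' : Submodule F (Vd d F), W' < W ∧ (∀ a ∈ K, ∀ w ∈ W', a *ᵥ w ∈ W') ∧
        (∀ w ∈ W', (∀ u ∈ W', Cfsg.sympForm d F w u = 0) → w = 0) ∧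
        (∀ x ∈ W', ∀ a : ↥K, Cfsg.sympForm d F x ((a : Md d F) *ᵥ w) = 0 ∧
          Cfsg.sympForm d F x ((a : Md d F) *ᵥ u) = 0) ∧
        (∀ x ∈ W, ∃ α β : ↥K, x - ((α : Md d F) *ᵥ w + (β : Md d F) *ᵥ u) ∈ W') := by
  obtain ⟨w, hwW, hw0⟩ := Submodule.exists_mem_ne_zero_of_ne_bot hW
  have h1 : ∃ u₀ ∈ W, Cfsg.sympForm d F w u₀ ≠ 0 := by
    by_contra h
    push Not at h
    exact hw0 (hWn w hwW h)
  obtain ⟨u₀, hu₀W, hu₀⟩ := h1
  obtain ⟨c, hc⟩ := exists_rep hA τ hτ (lamL K u₀ w)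
  have hc0 : c ≠ 0 := by
    intro h0
    have := hc 1
    rw [h0, zero_mul, map_zero, lamL_apply, OneMemClass.coe_one, Matrix.one_mulVec] at this
    rw [sf_swap, this, neg_zero] at hu₀
    exact hu₀ rfl
  obtain ⟨y, hyK, hy⟩ := hA.fld.inv c c.2 (fun h0 => hc0 (Subtype.ext h0))
  have hcci : c * (⟨y, hyK⟩ : ↥K) = 1 := Subtype.ext hy
  have huW : y *ᵥ u₀ ∈ W := hWK _ hyK _ hu₀W
  have hrel : ∀ a b : ↥K, Cfsg.sympForm d F ((a : Md d F) *ᵥ (y *ᵥ u₀)) ((b : Md d F) *ᵥ w)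
      = τ (a * b) := by
    intro a b
    rw [← f_sa hA b]
    have e : (b : Md d F) *ᵥ ((a : Md d F) *ᵥ (y *ᵥ u₀)) =
        ((b * a * (⟨y, hyK⟩ : ↥K) : ↥K) : Md d F) *ᵥ u₀ := by
      rw [Matrix.mulVec_mulVec, Matrix.mulVec_mulVec]
      rfl
    rw [e, ← lamL_apply, hc]
    congr 1
    rw [← mul_assoc, ← mul_assoc, kcomm hA c b, mul_assoc b, kcomm hA c a, mul_assoc b, mul_assoc a,
      hcci, mul_one, kcomm hA b a]
  have hdec : ∀ x ∈ W, ∃ α β : ↥K,
      x - ((α : Md d F) *ᵥ w + (β : Md d F) *ᵥ (y *ᵥ u₀)) ∈ W ⊓ perpK K w (y *ᵥ u₀) := by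
    intro x hx
    obtain ⟨β, hβ⟩ := exists_rep hA τ hτ (lamL K x w)
    obtain ⟨α, hα⟩ := exists_rep hA τ hτ (-(lamL K x (y *ᵥ u₀)))
    refine ⟨α, β, ⟨W.sub_mem hx (W.add_mem (hWK _ α.2 _ hwW) (hWK _ β.2 _ huW)), ?_⟩⟩
    intro a
    constructor
    · rw [sub_eq_add_neg, sf_add_left, ← neg_one_smul F, sf_smul_left, sf_add_left,
        f_same hA α a w, hrel β a, ← f_sa hA a x w, ← lamL_apply, hβ]
      ring
    · have h2 := hα a
      rw [LinearMap.neg_apply, lamL_apply] at h2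
      rw [sub_eq_add_neg, sf_add_left, ← neg_one_smul F, sf_smul_left, sf_add_left,
        f_same hA β a (y *ᵥ u₀), sf_swap d ((α : Md d F) *ᵥ w), hrel a α, ← f_sa hA a x,
        kcomm hA a α, ← h2]
      ring
  refine ⟨w, hwW, y *ᵥ u₀, huW, hrel, W ⊓ perpK K w (y *ᵥ u₀), ?_, ?_, ?_, fun x hx => hx.2, hdec⟩
  · refine lt_of_le_of_ne inf_le_left (fun h => ?_)
    have hwP : w ∈ W ⊓ perpK K w (y *ᵥ u₀) := by rw [h]; exact hwW
    apply hτ
    ext a
    have h3 := (hwP.2 a).2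
    rw [sf_swap] at h3
    have h4 := hrel a 1
    rw [OneMemClass.coe_one, Matrix.one_mulVec, mul_one] at h4
    rw [h4, neg_eq_zero] at h3
    rw [h3, LinearMap.zero_apply]
  · intro a ha x hx
    refine ⟨hWK a ha x hx.1, fun b => ?_⟩
    have := hx.2 ((⟨a, ha⟩ : ↥K) * b)
    constructor
    · rw [hA.sa a ha, Matrix.mulVec_mulVec]; exact this.1
    · rw [hA.sa a ha, Matrix.mulVec_mulVec]; exact this.2
  · intro x hx hall
    apply hWn x hx.1
    intro z hz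
    obtain ⟨α, β, hαβ⟩ := hdec z hz
    have h4 := hall _ hαβ
    have e : z = (z - ((α : Md d F) *ᵥ w + (β : Md d F) *ᵥ (y *ᵥ u₀))) +
        ((α : Md d F) *ᵥ w + (β : Md d F) *ᵥ (y *ᵥ u₀)) := (sub_add_cancel _ _).symm
    rw [e, sf_add_right, h4, sf_add_right, (hx.2 α).1, (hx.2 β).2, add_zero, add_zero]

/-- The induction: a `K`-invariant non-degenerate subspace has a `K`-hyperbolic system. -/
theorem darb_ind (hA : Adm d k K) (τ : ↥K →ₗ[F] F) (hτ : τ ≠ 0) :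
    ∀ (n : ℕ) (W : Submodule F (Vd d F)), Module.finrank F W ≤ n →
      (∀ a ∈ K, ∀ w ∈ W, a *ᵥ w ∈ W) →
      (∀ w ∈ W, (∀ u ∈ W, Cfsg.sympForm d F w u = 0) → w = 0) →
      ∃ (m : ℕ) (w u : Fin m → Vd d F), (∀ j, w j ∈ W) ∧ (∀ j, u j ∈ W) ∧
        (∀ (a b : ↥K) (i j : Fin m),
          Cfsg.sympForm d F ((a : Md d F) *ᵥ u i) ((b : Md d F) *ᵥ w j) =
            if i = j then τ (a * b) else 0) ∧
        (∀ (a b : ↥K) (i j : Fin m),
          Cfsg.sympForm d F ((a : Md d F) *ᵥ w i) ((b : Md d F) *ᵥ w j) = 0) ∧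
        (∀ (a b : ↥K) (i j : Fin m),
          Cfsg.sympForm d F ((a : Md d F) *ᵥ u i) ((b : Md d F) *ᵥ u j) = 0) ∧
        (∀ x ∈ W, ∃ α β : Fin m → ↥K,
          x = ∑ j, (α j : Md d F) *ᵥ w j + ∑ j, (β j : Md d F) *ᵥ u j) := by
  have base : ∀ W : Submodule F (Vd d F), W = ⊥ →
      ∃ (m : ℕ) (w u : Fin m → Vd d F), (∀ j, w j ∈ W) ∧ (∀ j, u j ∈ W) ∧
        (∀ (a b : ↥K) (i j : Fin m),
          Cfsg.sympForm d F ((a : Md d F) *ᵥ u i) ((b : Md d F) *ᵥ w j) =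
            if i = j then τ (a * b) else 0) ∧
        (∀ (a b : ↥K) (i j : Fin m),
          Cfsg.sympForm d F ((a : Md d F) *ᵥ w i) ((b : Md d F) *ᵥ w j) = 0) ∧
        (∀ (a b : ↥K) (i j : Fin m),
          Cfsg.sympForm d F ((a : Md d F) *ᵥ u i) ((b : Md d F) *ᵥ u j) = 0) ∧
        (∀ x ∈ W, ∃ α β : Fin m → ↥K,
          x = ∑ j, (α j : Md d F) *ᵥ w j + ∑ j, (β j : Md d F) *ᵥ u j) := by
    intro W hW
    subst hW
    refine ⟨0, Fin.elim0, Fin.elim0, fun j => j.elim0, fun j => j.elim0, fun a b i => i.elim0,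
      fun a b i => i.elim0, fun a b i => i.elim0, ?_⟩
    intro x hx
    refine ⟨Fin.elim0, Fin.elim0, ?_⟩
    rw [Submodule.mem_bot] at hx
    simp [hx]
  intro n
  induction n with
  | zero =>
    intro W hW _ _
    apply base W
    rw [← Submodule.finrank_eq_zero]
    omega
  | succ n ih =>
    intro W hW hWK hWn
    by_cases hbot : W = ⊥
    · exact base W hbot
    obtain ⟨w₀, hw₀W, u₀, hu₀W, hrel, W', hlt, hW'K, hW'n, hperp, hdec⟩ :=
      step hA τ hτ W hWK hWn hbot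
    have hfr : Module.finrank F W' ≤ n := by
      have := Submodule.finrank_lt_finrank_of_lt hlt
      omega
    obtain ⟨m, w, u, hw, hu, huw, hww, huu, hspan⟩ := ih W' hfr hW'K hW'n
    refine ⟨m + 1, (Fin.cons w₀ w : Fin (m + 1) → Vd d F),
      (Fin.cons u₀ u : Fin (m + 1) → Vd d F), ?_, ?_, ?_, ?_, ?_, ?_⟩
    · intro j
      refine Fin.cases ?_ (fun i => ?_) j
      · simpa using hw₀W
      · simpa using hlt.le (hw i)
    · intro j
      refine Fin.cases ?_ (fun i => ?_) j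
      · simpa using hu₀W
      · simpa using hlt.le (hu i)
    · intro a b i j
      refine Fin.cases ?_ (fun i' => ?_) i <;> refine Fin.cases ?_ (fun j' => ?_) j
      · simp only [Fin.cons_zero]
        rw [hrel]
        simp
      · simp only [Fin.cons_zero, Fin.cons_succ]
        rw [sf_swap, (hperp _ (hW'K _ b.2 _ (hw j')) a).2, neg_zero,
          if_neg (Fin.succ_ne_zero j').symm]
      · simp only [Fin.cons_zero, Fin.cons_succ]
        rw [(hperp _ (hW'K _ a.2 _ (hu i')) b).1, if_neg (Fin.succ_ne_zero i')]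
      · simp only [Fin.cons_succ]
        rw [huw]
        simp only [Fin.succ_inj]
    · intro a b i j
      refine Fin.cases ?_ (fun i' => ?_) i <;> refine Fin.cases ?_ (fun j' => ?_) j
      · simp only [Fin.cons_zero]
        exact f_same hA a b w₀
      · simp only [Fin.cons_zero, Fin.cons_succ]
        rw [sf_swap, (hperp _ (hW'K _ b.2 _ (hw j')) a).1, neg_zero]
      · simp only [Fin.cons_zero, Fin.cons_succ]
        exact (hperp _ (hW'K _ a.2 _ (hw i')) b).1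
      · simp only [Fin.cons_succ]
        exact hww a b i' j'
    · intro a b i j
      refine Fin.cases ?_ (fun i' => ?_) i <;> refine Fin.cases ?_ (fun j' => ?_) j
      · simp only [Fin.cons_zero]
        exact f_same hA a b u₀
      · simp only [Fin.cons_zero, Fin.cons_succ]
        rw [sf_swap, (hperp _ (hW'K _ b.2 _ (hu j')) a).2, neg_zero]
      · simp only [Fin.cons_zero, Fin.cons_succ]
        exact (hperp _ (hW'K _ a.2 _ (hu i')) b).2
      · simp only [Fin.cons_succ]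
        exact huu a b i' j'
    · intro x hx
      obtain ⟨α₀, β₀, hx'⟩ := hdec x hx
      obtain ⟨α, β, hαβ⟩ := hspan _ hx'
      refine ⟨(Fin.cons α₀ α : Fin (m + 1) → ↥K), (Fin.cons β₀ β : Fin (m + 1) → ↥K), ?_⟩
      rw [Fin.sum_univ_succ, Fin.sum_univ_succ]
      simp only [Fin.cons_zero, Fin.cons_succ]
      rw [sub_eq_iff_eq_add] at hαβ
      rw [hαβ]
      abel

/-- Gram computation for a `K`-hyperbolic system. -/
theorem gram_of (hA : Adm d k K) (τ : ↥K →ₗ[F] F) {m : ℕ} (w u : Fin m → Vd d F)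
    (huw : ∀ (a b : ↥K) (i j : Fin m),
      Cfsg.sympForm d F ((a : Md d F) *ᵥ u i) ((b : Md d F) *ᵥ w j) =
        if i = j then τ (a * b) else 0)
    (hww : ∀ (a b : ↥K) (i j : Fin m),
      Cfsg.sympForm d F ((a : Md d F) *ᵥ w i) ((b : Md d F) *ᵥ w j) = 0)
    (huu : ∀ (a b : ↥K) (i j : Fin m),
      Cfsg.sympForm d F ((a : Md d F) *ᵥ u i) ((b : Md d F) *ᵥ u j) = 0)
    (c c' : Fin m ⊕ Fin m → ↥K) :
    Cfsg.sympForm d F (∑ j, (c j : Md d F) *ᵥ Sum.elim w u j)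
        (∑ j, (c' j : Md d F) *ᵥ Sum.elim w u j) =
      τ (∑ j : Fin m, (c (Sum.inr j) * c' (Sum.inl j) - c (Sum.inl j) * c' (Sum.inr j))) := by
  classical
  have h1 : ∀ i j : Fin m, Cfsg.sympForm d F ((c (Sum.inl i) : Md d F) *ᵥ w i)
      ((c' (Sum.inr j) : Md d F) *ᵥ u j) =
        if i = j then -τ (c (Sum.inl i) * c' (Sum.inr j)) else 0 := by
    intro i j
    rw [sf_swap, huw]
    by_cases h : i = j
    · subst h
      rw [if_pos rfl, if_pos rfl, kcomm hA]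
    · rw [if_neg h, if_neg (Ne.symm h), neg_zero]
  rw [Fintype.sum_sum_type, Fintype.sum_sum_type]
  simp only [Sum.elim_inl, Sum.elim_inr]
  rw [sf_add_left, sf_add_right, sf_add_right, sf_sum_left, sf_sum_left, sf_sum_left, sf_sum_left]
  simp only [sf_sum_right, h1, hww, huu, huw, Finset.sum_const_zero, zero_add, add_zero,
    Finset.sum_ite_eq, Finset.mem_univ, if_true]
  rw [map_sum, ← Finset.sum_add_distrib]
  apply Finset.sum_congr rfl
  intro i _
  rw [map_sub]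
  ring

/-- Uniqueness of coordinates in a `K`-hyperbolic system. -/
theorem coeff_zero_of (hA : Adm d k K) (τ : ↥K →ₗ[F] F) (hτ : τ ≠ 0) {m : ℕ}
    (w u : Fin m → Vd d F)
    (huw : ∀ (a b : ↥K) (i j : Fin m),
      Cfsg.sympForm d F ((a : Md d F) *ᵥ u i) ((b : Md d F) *ᵥ w j) =
        if i = j then τ (a * b) else 0)
    (hww : ∀ (a b : ↥K) (i j : Fin m),
      Cfsg.sympForm d F ((a : Md d F) *ᵥ w i) ((b : Md d F) *ᵥ w j) = 0)
    (huu : ∀ (a b : ↥K) (i j : Fin m),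
      Cfsg.sympForm d F ((a : Md d F) *ᵥ u i) ((b : Md d F) *ᵥ u j) = 0)
    (δ : Fin m ⊕ Fin m → ↥K)
    (h : ∑ j, (δ j : Md d F) *ᵥ Sum.elim w u j = 0) : δ = 0 := by
  classical
  have key : ∀ c'' : Fin m ⊕ Fin m → ↥K,
      τ (∑ j : Fin m, (δ (Sum.inr j) * c'' (Sum.inl j) - δ (Sum.inl j) * c'' (Sum.inr j))) = 0 := by
    intro c''
    rw [← gram_of hA τ w u huw hww huu δ c'', h, sf_zero_left]
  funext j
  rcases j with i | i
  · apply tau_nondeg hA τ hτ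
    intro b
    have h2 := key (Sum.elim (fun _ => 0) (fun j => if j = i then b else 0))
    simp only [Sum.elim_inl, Sum.elim_inr, mul_zero, zero_sub, mul_ite, Finset.sum_neg_distrib,
      Finset.sum_ite_eq', Finset.mem_univ, if_true, map_neg, neg_eq_zero] at h2
    exact h2
  · apply tau_nondeg hA τ hτ
    intro b
    have h2 := key (Sum.elim (fun j => if j = i then b else 0) (fun _ => 0))
    simp only [Sum.elim_inl, Sum.elim_inr, mul_zero, sub_zero, mul_ite,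
      Finset.sum_ite_eq', Finset.mem_univ, if_true] at h2
    exact h2

/-- The entry functional on `K`. -/
def tauE (K : Subalgebra F (Md d F)) (hd : 1 ≤ d) : ↥K →ₗ[F] F where
  toFun a := (a : Md d F) (Sum.inl ⟨0, hd⟩) (Sum.inl ⟨0, hd⟩)
  map_add' a b := by rw [Subalgebra.coe_add, Matrix.add_apply]
  map_smul' c a := by rw [Subalgebra.coe_smul, Matrix.smul_apply, RingHom.id_apply]

theorem tauE_ne_zero (K : Subalgebra F (Md d F)) (hd : 1 ≤ d) : tauE K hd ≠ 0 := by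
  intro h
  have h1 : tauE K hd 1 = 0 := by rw [h]; rfl
  have h2 : tauE K hd 1 = 1 := by
    show ((1 : ↥K) : Md d F) _ _ = 1
    rw [OneMemClass.coe_one, Matrix.one_apply_eq]
  rw [h2] at h1
  exact one_ne_zero h1

/-- [DARB] existence of a `K`-Darboux basis. -/
theorem pkgDarb : PkgDarb.{u} := by
  intro F _ _ d k K hA hd
  classical
  have hnd : ∀ w ∈ (⊤ : Submodule F (Vd d F)),
      (∀ u ∈ (⊤ : Submodule F (Vd d F)), Cfsg.sympForm d F w u = 0) → w = 0 := by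
    intro w _ h
    by_contra hw
    obtain ⟨v', hv'⟩ := Cfsg.Agent.Lib.Helper40.exists_sympForm_eq_one d w hw
    have := h v' trivial
    rw [hv'] at this
    exact one_ne_zero this
  obtain ⟨m, w, u, -, -, huw, hww, huu, hspan⟩ :=
    darb_ind hA (tauE K hd) (tauE_ne_zero K hd) _ ⊤ le_rfl (fun _ _ _ _ => trivial) hnd
  refine ⟨m, tauE K hd, Sum.elim w u, ⟨⟨?_, ?_⟩, gram_of hA _ w u huw hww huu⟩⟩
  · intro c c' h
    have h' : ∑ j, (c j : Md d F) *ᵥ Sum.elim w u j = ∑ j, (c' j : Md d F) *ᵥ Sum.elim w u j := h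
    have h0 : ∑ j, (((c - c') j : ↥K) : Md d F) *ᵥ Sum.elim w u j = 0 := by
      simp only [Pi.sub_apply, Subalgebra.coe_sub, Matrix.sub_mulVec, Finset.sum_sub_distrib]
      rw [h', sub_self]
    have := coeff_zero_of hA _ (tauE_ne_zero K hd) w u huw hww huu (c - c') h0
    exact sub_eq_zero.mp this
  · intro x
    obtain ⟨α, β, hx⟩ := hspan x trivial
    refine ⟨Sum.elim α β, ?_⟩
    show ∑ j, ((Sum.elim α β j : ↥K) : Md d F) *ᵥ Sum.elim w u j = x
    rw [Fintype.sum_sum_type]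
    simp only [Sum.elim_inl, Sum.elim_inr]
    exact hx.symm

end Cfsg.Agent.Lib.Helper11.FXSP
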