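import Mathlib
import Cfsg.Agent.Lib.Helper11.FXSP.Darb

/-!
# FXSP (S5975): [EVENW] a `K`-invariant non-degenerate subspace has dimension divisible by `2k`
-/

set_option autoImplicit false
open scoped Matrix

namespace Cfsg.Agent.Lib.Helper11.FXSP

open Cfsg.Agent.Lib.Helper4.FXSP Cfsg.Agent.Lib.Helper94

universe u

variable {F : Type u} [Field F] {d k : ℕ}

/-- The coordinate map of a family `e`. -/
def coordL (K : Subalgebra F (Md d F)) {m : ℕ} (e : Fin m ⊕ Fin m → Vd d F) :
    (Fin m ⊕ Fin m → ↥K) →ₗ[F] Vd d F where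
  toFun c := ∑ j, (c j : Md d F) *ᵥ e j
  map_add' c c' := by
    simp only [Pi.add_apply, Subalgebra.coe_add, Matrix.add_mulVec, Finset.sum_add_distrib]
  map_smul' r c := by
    simp only [Pi.smul_apply, Subalgebra.coe_smul, Matrix.smul_mulVec, RingHom.id_apply,
      Finset.smul_sum]

/-- [EVENW] a `K`-invariant subspace on which the form is non-degenerate has dimension divisible
by `2k`. -/
theorem pkgEvenW : PkgEvenW.{u} := by
  intro F _ _ d k K hA W hWK hWn
  classical
  rcases Nat.eq_zero_or_pos d with rfl | hd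
  · have h0 : Module.finrank F W = 0 := by
      haveI : Subsingleton (Vd 0 F) :=
        ⟨fun a b => funext (fun i => by rcases i with i | i <;> exact i.elim0)⟩
      exact Module.finrank_zero_of_subsingleton
    rw [h0]
    exact dvd_zero _
  obtain ⟨m, w, u, hw, hu, huw, hww, huu, hspan⟩ :=
    darb_ind hA (tauE K hd) (tauE_ne_zero K hd) _ W le_rfl hWK hWn
  have hinj : Function.Injective (coordL K (Sum.elim w u)) := by
    rw [← LinearMap.ker_eq_bot, LinearMap.ker_eq_bot']
    intro c hc
    exact coeff_zero_of hA _ (tauE_ne_zero K hd) w u huw hww huu c hc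
  have hrange : LinearMap.range (coordL K (Sum.elim w u)) = W := by
    apply le_antisymm
    · rintro x ⟨c, rfl⟩
      show ∑ j, (c j : Md d F) *ᵥ Sum.elim w u j ∈ W
      apply Submodule.sum_mem
      intro j _
      rcases j with i | i
      · exact hWK _ (c _).2 _ (hw i)
      · exact hWK _ (c _).2 _ (hu i)
    · intro x hx
      obtain ⟨α, β, hx'⟩ := hspan x hx
      refine ⟨Sum.elim α β, ?_⟩
      show ∑ j, ((Sum.elim α β j : ↥K) : Md d F) *ᵥ Sum.elim w u j = x
      rw [Fintype.sum_sum_type]
      simp only [Sum.elim_inl, Sum.elim_inr]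
      exact hx'.symm
  have h1 : Module.finrank F W = Module.finrank F (Fin m ⊕ Fin m → ↥K) := by
    rw [← hrange]
    exact LinearMap.finrank_range_of_inj hinj
  rw [h1, Module.finrank_pi_fintype]
  simp only [Finset.sum_const, Finset.card_univ, Fintype.card_sum, Fintype.card_fin, smul_eq_mul,
    hA.fld.finrank_eq]
  exact ⟨m, by ring⟩

end Cfsg.Agent.Lib.Helper11.FXSP
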